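import Cfsg.Agent.H672.SC

/-!
# The involution criterion without parity assumption on `|C(g)|`

`ninv t g` : the number of conjugates of `t` inverting `g`.

* `npairs_eq` : `npairs t t g = ninv t g` for an involution `t` and `g` of odd order.
* `orderOf_dvd_ninv` : the order of `g` divides `ninv t g`; `ninv_le` : `ninv t g ≤ |C(g)|`.
* `IM_of_ninv`, `IM_of_inverted_lt` (`|C(g)| < p * orderOf g`, `p ∤ orderOf g`).
-/

set_option autoImplicit false

open Cfsg

namespace Cfsg.Agent.H593.IMInv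

open Cfsg.Agent.H33 Cfsg.Agent.H672.SC

universe u

variable {G : Type u} [Group G]

/-- The number of conjugates of `t` inverting `g`. -/
noncomputable def ninv (t g : G) : ℕ := Nat.card {x : G // IsConj t x ∧ x * g * x⁻¹ = g⁻¹}

theorem mul_self_of_isConj {t x : G} (ht : t * t = 1) (h : IsConj t x) : x * x = 1 := by
  obtain ⟨c, rfl⟩ := isConj_iff.1 h
  calc c * t * c⁻¹ * (c * t * c⁻¹) = c * (t * t) * c⁻¹ := by group
    _ = 1 := by rw [ht]; group

theorem npairs_eq {t g : G} (ht : t * t = 1) (hg : Odd (orderOf g)) : npairs t t g = ninv t g := by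
  obtain ⟨j, hj⟩ := exists_two_mul hg
  refine Nat.card_congr ⟨fun z => ⟨z.1.1, z.2.1, ?_⟩, fun x => ⟨(x.1, x.1 * g), x.2.1, ?_, ?_⟩, ?_, ?_⟩
  · obtain ⟨⟨x, y⟩, hx, hy, hxy⟩ := z
    simp only at hx hy hxy ⊢
    have hx2 := mul_self_of_isConj ht hx
    have hy2 := mul_self_of_isConj ht hy
    have hxi : x⁻¹ = x := inv_eq_of_mul_eq_one_left hx2
    have hyi : y⁻¹ = y := inv_eq_of_mul_eq_one_left hy2
    rw [← hxy, mul_inv_rev, hxi, hyi]
    calc x * (x * y) * x = (x * x) * y * x := by group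
      _ = y * x := by rw [hx2, one_mul]
  · obtain ⟨x, hx, hxg⟩ := x
    simp only at hx hxg ⊢
    have hx2 := mul_self_of_isConj ht hx
    refine hx.trans ?_
    -- `x g = g⁻ʲ x gʲ`
    have hxi : x⁻¹ = x := inv_eq_of_mul_eq_one_left hx2
    have h1 : x * g = g⁻¹ * x := by
      calc x * g = x * g * x⁻¹ * x := by group
        _ = g⁻¹ * x := by rw [hxg]
    have hginv : (g⁻¹) ^ orderOf g = 1 := by rw [inv_pow, pow_orderOf_eq_one, inv_one]
    have hconj : x * g⁻¹ * x⁻¹ = g⁻¹⁻¹ := by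
      have := congrArg (fun z => z⁻¹) hxg
      simpa [mul_assoc] using this
    have h2 := mul_eq_conj hconj hginv hj
    rw [h1, h2]
    exact isConj_iff.2 ⟨_, rfl⟩
  · obtain ⟨x, hx, hxg⟩ := x
    simp only at hx hxg ⊢
    have hx2 := mul_self_of_isConj ht hx
    rw [← mul_assoc, hx2, one_mul]
  · rintro ⟨⟨x, y⟩, hx, hy, hxy⟩
    simp only at hx hy hxy
    have hx2 := mul_self_of_isConj ht hx
    apply Subtype.ext
    simp only [Prod.mk.injEq, true_and]
    rw [← hxy, ← mul_assoc, hx2, one_mul]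
  · rintro ⟨x, hx, hxg⟩
    rfl

theorem ninv_le [Finite G] (t g : G) :
    ninv t g ≤ Nat.card (Subgroup.centralizer ({g} : Set G)) := by
  by_cases h : Nonempty {x : G // IsConj t x ∧ x * g * x⁻¹ = g⁻¹}
  · obtain ⟨⟨x₀, hx₀, hx₀g⟩⟩ := h
    refine Nat.card_le_card_of_injective
      (fun x : {x : G // IsConj t x ∧ x * g * x⁻¹ = g⁻¹} =>
        (⟨x₀⁻¹ * x.1, ?_⟩ : Subgroup.centralizer ({g} : Set G))) ?_
    · rw [Subgroup.mem_centralizer_singleton_iff]
      have h1 : x.1 * g = g⁻¹ * x.1 := mul_inv_eq_iff_eq_mul.1 x.2.2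
      have h2 : x₀ * g = g⁻¹ * x₀ := mul_inv_eq_iff_eq_mul.1 hx₀g
      have h3 : x₀⁻¹ * g⁻¹ = g * x₀⁻¹ := by
        rw [inv_mul_eq_iff_eq_mul, ← mul_assoc, h2, mul_inv_cancel_right]
      rw [mul_assoc, h1, ← mul_assoc, h3, mul_assoc]
    · intro x y hxy
      exact Subtype.ext (mul_left_cancel (congrArg Subtype.val hxy))
  · rw [not_nonempty_iff] at h
    unfold ninv
    rw [Nat.card_eq_zero.2 (Or.inl h)]
    exact Nat.zero_le _

theorem ninv_pos [Finite G] {t g : G} (hg : t * g * t⁻¹ = g⁻¹) : 0 < ninv t g := by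
  have : Nonempty {x : G // IsConj t x ∧ x * g * x⁻¹ = g⁻¹} := ⟨⟨t, IsConj.refl t, hg⟩⟩
  exact Nat.card_pos

/-- `⟨g⟩` acts freely by conjugation on the conjugates of `t` inverting `g`. -/
theorem orderOf_dvd_ninv [Finite G] {t g : G} (hg : Odd (orderOf g)) :
    orderOf g ∣ ninv t g := by
  classical
  let X := {x : G // IsConj t x ∧ x * g * x⁻¹ = g⁻¹}
  let _ : MulAction (Subgroup.zpowers g) X :=
    { smul := fun h x => ⟨h * x.1 * (h : G)⁻¹, by
        obtain ⟨x, hx, hxg⟩ := x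
        obtain ⟨h, n, rfl⟩ := h
        refine ⟨hx.trans (isConj_iff.2 ⟨_, rfl⟩), ?_⟩
        show g ^ n * x * (g ^ n)⁻¹ * g * (g ^ n * x * (g ^ n)⁻¹)⁻¹ = g⁻¹
        have h1 : (g ^ n)⁻¹ * g = g * (g ^ n)⁻¹ := by
          rw [← zpow_neg, (Commute.refl g).zpow_left (-n) |>.eq]
        calc g ^ n * x * (g ^ n)⁻¹ * g * (g ^ n * x * (g ^ n)⁻¹)⁻¹
            = g ^ n * x * ((g ^ n)⁻¹ * g) * g ^ n * x⁻¹ * (g ^ n)⁻¹ := by group
          _ = g ^ n * x * (g * (g ^ n)⁻¹) * g ^ n * x⁻¹ * (g ^ n)⁻¹ := by rw [h1]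
          _ = g ^ n * (x * g * x⁻¹) * (g ^ n)⁻¹ := by group
          _ = g ^ n * g⁻¹ * (g ^ n)⁻¹ := by rw [hxg]
          _ = g⁻¹ := by group⟩
      one_smul := fun x => by
        apply Subtype.ext
        show ((1 : Subgroup.zpowers g) : G) * x.1 * ((1 : Subgroup.zpowers g) : G)⁻¹ = x.1
        simp
      mul_smul := fun a b x => by
        apply Subtype.ext
        show ((a * b : Subgroup.zpowers g) : G) * x.1 * ((a * b : Subgroup.zpowers g) : G)⁻¹ =
          a * (b * x.1 * (b : G)⁻¹) * (a : G)⁻¹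
        rw [Subgroup.coe_mul]
        group }
  have hstab : ∀ x : X, MulAction.stabilizer (Subgroup.zpowers g) x = ⊥ := by
    rintro ⟨x, hx, hxg⟩
    rw [Subgroup.eq_bot_iff_forall]
    rintro ⟨h, n, rfl⟩ hh
    have h1 : g ^ n * x * (g ^ n)⁻¹ = x := congrArg Subtype.val (MulAction.mem_stabilizer_iff.1 hh)
    have h2 : x * (g ^ n) * x⁻¹ = (g ^ n)⁻¹ := by
      have h3 : MulAut.conj x g = g⁻¹ := hxg
      have h4 : MulAut.conj x (g ^ n) = (g ^ n)⁻¹ := by rw [map_zpow, h3, inv_zpow]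
      exact h4
    have h3 : (g ^ n) * (g ^ n) = 1 := by
      have h4 : g ^ n * x = x * g ^ n := mul_inv_eq_iff_eq_mul.1 h1
      have h5 : x * (g ^ n) * x⁻¹ = g ^ n := by rw [← h4, mul_inv_cancel_right]
      rw [h5] at h2
      exact mul_eq_one_iff_eq_inv.2 h2
    have h4 : orderOf (g ^ n) ∣ 2 := orderOf_dvd_of_pow_eq_one (by rw [pow_two, h3])
    have h5 : orderOf (g ^ n) ∣ orderOf g := by
      apply orderOf_dvd_of_pow_eq_one
      rw [← zpow_natCast, ← zpow_mul, mul_comm, zpow_mul, zpow_natCast, pow_orderOf_eq_one, one_zpow]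
    have h6 : orderOf (g ^ n) = 1 := by
      rcases (Nat.dvd_prime Nat.prime_two).1 h4 with h | h
      · exact h
      · rw [h] at h5
        exact absurd h5 (by rw [← even_iff_two_dvd]; exact Nat.not_even_iff_odd.2 hg)
    exact Subtype.ext (orderOf_eq_one_iff.1 h6)
  have hfin : Finite X := Subtype.finite
  have := Fintype.ofFinite (Quotient (MulAction.orbitRel (Subgroup.zpowers g) X))
  have h1 : Nat.card X = Nat.card (Quotient (MulAction.orbitRel (Subgroup.zpowers g) X)) *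
      Nat.card (Subgroup.zpowers g) := by
    have e := (MulAction.selfEquivSigmaOrbitsQuotientStabilizer (Subgroup.zpowers g) X)
    rw [Nat.card_congr e, Nat.card_sigma]
    have h2 : ∀ ω : Quotient (MulAction.orbitRel (Subgroup.zpowers g) X),
        Nat.card (Subgroup.zpowers g ⧸ MulAction.stabilizer (Subgroup.zpowers g) ω.out) =
          Nat.card (Subgroup.zpowers g) := by
      intro ω
      rw [hstab]
      exact Nat.card_congr (QuotientGroup.quotientBot).toEquiv
    rw [Finset.sum_congr rfl fun ω _ => h2 ω, Finset.sum_const, Finset.card_univ, smul_eq_mul,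
      Nat.card_eq_fintype_card (α := Quotient (MulAction.orbitRel (Subgroup.zpowers g) X))]
  rw [show ninv t g = Nat.card X from rfl, h1, Nat.card_zpowers]
  exact dvd_mul_left _ _

/-- **Criterion** with the number of conjugates of `t` inverting `g`. -/
theorem IM_of_ninv [Finite G] {p : ℕ} [hp : Fact p.Prime] {t g : G} (ht : t * t = 1)
    (hodd : Odd (orderOf g)) {k : ℕ} (hk : p ^ k ∣ Nat.card G)
    (h : ¬ p ^ k ∣ ninv t g * Nat.card (Subgroup.centralizer ({t} : Set G)) ^ 2) : IM p G := by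
  apply IM.of_npairs t t g hk
  rwa [npairs_eq ht hodd, ← sq]

/-- **Criterion**: the involution `t` inverts `g` of odd order prime to `p`, `|C(g)| < p * o(g)`, and
`p ^ k` divides `|G|` and not `|C(t)|²`. -/
theorem IM_of_inverted_lt [Finite G] {p : ℕ} [hp : Fact p.Prime] {t g : G} (ht : t * t = 1)
    (hg : t * g * t⁻¹ = g⁻¹) (hodd : Odd (orderOf g)) (hpg : ¬ p ∣ orderOf g)
    (hlt : Nat.card (Subgroup.centralizer ({g} : Set G)) < p * orderOf g) {k : ℕ}
    (hk : p ^ k ∣ Nat.card G)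
    (h : ¬ p ^ k ∣ Nat.card (Subgroup.centralizer ({t} : Set G)) ^ 2) : IM p G := by
  apply IM_of_ninv ht hodd hk
  intro hd
  apply h
  have h1 : ¬ p ∣ ninv t g := by
    intro hp1
    have h2 : p * orderOf g ∣ ninv t g :=
      (((Nat.Prime.coprime_iff_not_dvd hp.out).2 hpg)).mul_dvd_of_dvd_of_dvd hp1
        (orderOf_dvd_ninv hodd)
    have h3 := Nat.le_of_dvd (ninv_pos hg) h2
    have h4 := ninv_le t g
    omega
  exact (Nat.Coprime.pow_left _ ((Nat.Prime.coprime_iff_not_dvd hp.out).2 h1)).dvd_of_dvd_mul_left hd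

end Cfsg.Agent.H593.IMInv
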